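import Cfsg.Agent.Sz.Partition
import Cfsg.Agent.Sz.TwoModules
import Cfsg.Agent.Schur.Basic
import Mathlib.GroupTheory.Transfer
import Cfsg.Prelude.Def_KGroupFacts
set_option autoImplicit false

/-!
The Schur multiplier of the Suzuki groups over fields with at least 32 elements is trivial.
-/

namespace CfsgLib.Sz

section

variable {F : Type*} [Field F] [Fintype F] {m : ℕ} (h : Hyp F m)
variable {Γ : Type*} [Group Γ]

/-- A central extension by a group of order two. -/
structure DoubleCover (σ : Γ →* G F m) (e : Γ) : Prop where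
  surj : Function.Surjective σ
  ne_one : e ≠ 1
  central : ∀ x, e * x = x * e
  ker : ∀ x, σ x = 1 ↔ x = 1 ∨ x = e

variable {σ : Γ →* G F m} {e : Γ} (c : DoubleCover σ e)
include c

omit [Fintype F] in
theorem DoubleCover.ee : e * e = 1 := by
  have : σ (e * e) = 1 := by rw [map_mul, (c.ker e).mpr (Or.inr rfl), mul_one]
  refine ((c.ker _).mp this).resolve_right fun e' => c.ne_one ?_
  calc e = e⁻¹ * (e * e) := by group
    _ = 1 := by rw [e', inv_mul_cancel]

omit [Fintype F] in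
theorem DoubleCover.two_choices {x y : Γ} (hxy : σ x = σ y) : x = y ∨ x = y * e := by
  rcases (c.ker (y⁻¹ * x)).mp (by rw [map_mul, map_inv, hxy, inv_mul_cancel]) with h1 | h1
  · exact Or.inl (inv_mul_eq_one.mp h1).symm
  · exact Or.inr (by rw [← h1, mul_inv_cancel_left])

omit [Fintype F] in
theorem DoubleCover.conj_eq {g g' : Γ} (hg : σ g = σ g') (x : Γ) : g * x * g⁻¹ = g' * x * g'⁻¹ := by
  rcases c.two_choices hg with rfl | rfl
  · rfl
  · calc g' * e * x * (g' * e)⁻¹ = g' * (e * x) * e⁻¹ * g'⁻¹ := by group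
      _ = g' * (x * e) * e⁻¹ * g'⁻¹ := by rw [c.central x]
      _ = g' * x * g'⁻¹ := by group

omit [Fintype F] in
theorem DoubleCover.sq_eq {x y : Γ} (hxy : σ x = σ y) : x * x = y * y := by
  rcases c.two_choices hxy with rfl | rfl
  · rfl
  · calc y * e * (y * e) = y * (e * y) * e := by group
      _ = y * y * (e * e) := by rw [c.central y]; group
      _ = y * y := by rw [c.ee, mul_one]

omit [Fintype F] in
theorem DoubleCover.comm_lift {x x' y y' : Γ} (hx : σ x = σ x') (hy : σ y = σ y') (hc : x' * y' = y' * x') :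
    x * y = y * x := by
  have he : ∀ z, z * e = e * z := fun z => (c.central z).symm
  rcases c.two_choices hx with rfl | rfl <;> rcases c.two_choices hy with rfl | rfl
  · exact hc
  · calc x * (y' * e) = x * y' * e := by group
      _ = y' * (x * e) := by rw [hc]; group
      _ = y' * e * x := by rw [he x]; group
  · calc x' * e * y = x' * (e * y) := by group
      _ = x' * y * e := by rw [c.central y]; group
      _ = y * (x' * e) := by rw [hc]; group
  · calc x' * e * (y' * e) = x' * (e * y') * e := by group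
      _ = x' * y' * e * e := by rw [c.central y']; group
      _ = y' * (x' * e) * e := by rw [hc]; group
      _ = y' * (e * x') * e := by rw [he x']
      _ = y' * e * (x' * e) := by group

include h

omit c in
theorem exists_three : ∃ w w' : F, w ≠ 0 ∧ w ≠ 1 ∧ w' ≠ 0 ∧ w' ≠ 1 ∧ w ≠ w' ∧ w + w' ≠ 1 := by
  classical
  obtain ⟨w, hw0, hw1⟩ := exists_ne_01 h
  have h8 := h.q_ge
  have hcard : ({0, 1, w, w + 1} : Finset F).card < (Finset.univ : Finset F).card := by
    refine lt_of_le_of_lt Finset.card_le_four ?_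
    rw [Finset.card_univ]; omega
  obtain ⟨w', -, hw'⟩ := Finset.exists_mem_notMem_of_card_lt_card hcard
  simp only [Finset.mem_insert, Finset.mem_singleton, not_or] at hw'
  exact ⟨w, w', hw0, hw1, hw'.1, hw'.2.1, fun e => hw'.2.2.1 e.symm,
    fun e => hw'.2.2.2 (by linear_combination e - w * h.two)⟩

omit c in
/-- No multiplicative-twisted pairing over the field with two elements. -/
theorem twisted_additive_zero (hm2 : 2 ≤ m) (S : F → Prop) (hadd : ∀ v w, (S v ↔ S w) → S (v + w))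
    (hlin : ∀ a b : F, a ≠ 0 → b ≠ 0 → a + b ≠ 0 → ∀ z : F,
      (S (z * (a * th m a)⁻¹) ↔ S (z * (b * th m b)⁻¹)) ↔ S (z * ((a + b) * th m (a + b))⁻¹)) :
    ∀ z, S z := by
  classical
  obtain ⟨b, hb0, hb1, hne⟩ : ∃ b : F, b ≠ 0 ∧ b ≠ 1 ∧
      ((1 + b) * th m (1 + b))⁻¹ + ((1 : F) * th m 1)⁻¹ + (b * th m b)⁻¹ ≠ 0 := by
    by_contra hcon
    push Not at hcon
    set r := 2 ^ (m + 1) with hr
    let N : Polynomial F := Polynomial.X ^ (r + 1)
    let N1 : Polynomial F := (Polynomial.X + 1) ^ (r + 1)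
    let P : Polynomial F := N + N * N1 + N1
    have hr1 : 2 ≤ r := Nat.le_self_pow (Nat.succ_ne_zero m) 2
    have hN : N.natDegree = r + 1 := Polynomial.natDegree_X_pow _
    have hX : (Polynomial.X + 1 : Polynomial F).natDegree = 1 := by
      rw [show (1 : Polynomial F) = Polynomial.C 1 from Polynomial.C_1.symm]; exact Polynomial.natDegree_X_add_C _
    have hX0 : (Polynomial.X + 1 : Polynomial F) ≠ 0 := fun e => by rw [e] at hX; simp at hX
    have hN1 : N1.natDegree = r + 1 := by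
      rw [Polynomial.natDegree_pow, hX, mul_one]
    have hmul : (N * N1).natDegree = 2 * (r + 1) := by
      rw [Polynomial.natDegree_mul (pow_ne_zero _ Polynomial.X_ne_zero) (pow_ne_zero _ hX0), hN, hN1]; ring
    have hdeg : P.natDegree = 2 * (r + 1) := by
      rw [Polynomial.natDegree_add_eq_left_of_natDegree_lt, Polynomial.natDegree_add_eq_right_of_natDegree_lt]
      · exact hmul
      · rw [hN, hmul]; omega
      · rw [Polynomial.natDegree_add_eq_right_of_natDegree_lt (by rw [hN, hmul]; omega), hN1, hmul]; omega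
    have hP0 : P ≠ 0 := fun e => by rw [e, Polynomial.natDegree_zero] at hdeg; omega
    have hsub : ((Finset.univ.erase (0 : F)).erase 1) ⊆ P.roots.toFinset := by
      intro b hb
      have hb1 := Finset.ne_of_mem_erase hb
      have hb0 := Finset.ne_of_mem_erase (Finset.mem_of_mem_erase hb)
      rw [Multiset.mem_toFinset, Polynomial.mem_roots hP0, Polynomial.IsRoot.def]
      simp only [P, N, N1, Polynomial.eval_add, Polynomial.eval_mul, Polynomial.eval_pow, Polynomial.eval_X,
        Polynomial.eval_one]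
      have e := hcon b hb0 hb1
      have h1b : (1 : F) + b ≠ 0 := fun e' => hb1 (by linear_combination e' - h.two)
      have t1 : th m (1 + b) ≠ 0 := fun e' => h1b (th_eq_zero e')
      have t2 : th m b ≠ 0 := fun e' => hb0 (th_eq_zero e')
      rw [th_one, one_mul, inv_one] at e
      field_simp at e
      rw [pow_succ, pow_succ, show b ^ r = th m b from rfl, show (b + 1) ^ r = th m (b + 1) from rfl, add_comm b 1]
      linear_combination e
    have h1 := (Finset.card_le_card hsub).trans ((Multiset.toFinset_card_le _).trans (Polynomial.card_roots' P))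
    rw [hdeg, Finset.card_erase_of_mem (by simp), Finset.card_erase_of_mem (Finset.mem_univ _), Finset.card_univ,
      h.hF] at h1
    have h4 : 2 ^ (2 * m + 1) = r * 2 ^ m := by rw [hr, ← pow_add]; congr 1; omega
    have h5 : 4 ≤ 2 ^ m := (show 4 = 2 ^ 2 by norm_num).le.trans (Nat.pow_le_pow_right (by norm_num) hm2)
    have h6 : 8 ≤ r := (show 8 = 2 ^ 3 by norm_num).le.trans (Nat.pow_le_pow_right (by norm_num) (by omega))
    have h7 : r * 4 ≤ 2 ^ (2 * m + 1) := h4 ▸ Nat.mul_le_mul_left r h5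
    omega
  intro z
  set δ := ((1 + b) * th m (1 + b))⁻¹ + ((1 : F) * th m 1)⁻¹ + (b * th m b)⁻¹
  have h1b : (1 : F) + b ≠ 0 := fun e' => hb1 (by linear_combination e' - h.two)
  set v := z / δ
  have h3 := hlin 1 b one_ne_zero hb0 h1b v
  have h4 : S (v * ((1 + b) * th m (1 + b))⁻¹) ↔ S (v * ((1 : F) * th m 1)⁻¹ + v * (b * th m b)⁻¹) := by
    constructor
    · intro hs; exact hadd _ _ (h3.mpr hs)
    · intro hs
      refine h3.mp ⟨fun h5 => ?_, fun h5 => ?_⟩
      · have := hadd _ _ (iff_of_true hs h5)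
        rwa [show v * ((1 : F) * th m 1)⁻¹ + v * (b * th m b)⁻¹ + v * ((1 : F) * th m 1)⁻¹ = v * (b * th m b)⁻¹ by
          linear_combination (v * ((1 : F) * th m 1)⁻¹) * h.two] at this
      · have := hadd _ _ (iff_of_true hs h5)
        rwa [show v * ((1 : F) * th m 1)⁻¹ + v * (b * th m b)⁻¹ + v * (b * th m b)⁻¹ = v * ((1 : F) * th m 1)⁻¹ by
          linear_combination (v * (b * th m b)⁻¹) * h.two] at this
  have h6 := hadd _ _ h4
  rwa [show v * ((1 + b) * th m (1 + b))⁻¹ + (v * ((1 : F) * th m 1)⁻¹ + v * (b * th m b)⁻¹) = z by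
    rw [← add_assoc, ← mul_add, ← mul_add]; exact div_mul_cancel₀ z hne] at h6

theorem lift_central (hm2 : 2 ≤ m) :
    (∀ x : Γ, ∀ z, σ x = gU h 0 z → x * x = 1) ∧
      ∀ x y : Γ, ∀ a b z, σ x = gU h a b → σ y = gU h 0 z → x * y = y * x := by
  classical
  choose L hL using c.surj
  set Q : F → Γ := fun z => L (gU h 0 z) * L (gU h 0 z) with hQ
  have hQk : ∀ z, Q z = 1 ∨ Q z = e := fun z => (c.ker _).mp (by
    rw [map_mul, hL, gU_sq, th_zero, zero_mul, gU_zero])
  have hQc : ∀ z g, g * Q z * g⁻¹ = Q z := fun z g => by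
    rcases hQk z with e' | e' <;> rw [e']
    · group
    · rw [← c.central g, mul_inv_cancel_right]
  have hQinv : ∀ z w : F, z ≠ 0 → w ≠ 0 → Q w = Q z := by
    intro z w hz hw
    obtain ⟨g, hg⟩ : ∃ g : G F m, g * gU h 0 z * g⁻¹ = gU h 0 w := by
      obtain ⟨s, hs⟩ : ∃ s : Fˣ, th m (s : F) * (s : F) ^ 2 = w / z := by
        obtain ⟨u, hu⟩ := norm_surj h (w / z)
        obtain ⟨s, hs⟩ := h.th_surjective u
        have hu0 : u ≠ 0 := fun e' => div_ne_zero hw hz (by rw [← hu, e']; simp)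
        refine ⟨Units.mk0 s fun e' => hu0 (by rw [← hs, e', th_zero]), ?_⟩
        rw [Units.val_mk0, ← h.th_th s, hs, ← hu]
      exact ⟨gD h s, by rw [gD_gU, mul_zero, hs, div_mul_cancel₀ w hz]⟩
    have h1 : σ (L g * L (gU h 0 z) * (L g)⁻¹) = σ (L (gU h 0 w)) := by
      rw [map_mul, map_mul, map_inv, hL, hL, hL, hg]
    calc Q w = L g * L (gU h 0 z) * (L g)⁻¹ * (L g * L (gU h 0 z) * (L g)⁻¹) := (c.sq_eq h1).symm
      _ = L g * Q z * (L g)⁻¹ := by rw [hQ]; group
      _ = Q z := hQc z _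
  obtain ⟨w, w', hw0, hw1, hw'0, hw'1, hww, hsum⟩ := exists_three h
  have hQ1 : Q 1 = 1 := by
    by_contra hne
    have hall : ∀ z, z ≠ 0 → Q z = e := fun z hz => by
      rw [hQinv 1 z one_ne_zero hz]; exact (hQk 1).resolve_left hne
    have key : ∀ v v' : F, v ≠ 0 → v' ≠ 0 → v + v' ≠ 0 →
        L (gU h 0 v) * L (gU h 0 v') = L (gU h 0 v') * L (gU h 0 v) * e := by
      intro v v' hv hv' hvv
      set x := L (gU h 0 v) with hx
      set y := L (gU h 0 v') with hy
      have h1 : σ (x * y) = σ (L (gU h 0 (v + v'))) := by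
        rw [map_mul, hL, hL, hL, gU_mul, add_zero, th_zero, zero_mul, add_zero]
      have h2 : x * y * (x * y) = e := (c.sq_eq h1).trans (hall _ hvv)
      have hxx : x * x = e := hall _ hv
      have hyy : y * y = e := hall _ hv'
      have h5 : y * x = x⁻¹ * e * y⁻¹ := by rw [← h2]; group
      have h6 : x⁻¹ = x * e := inv_eq_of_mul_eq_one_right (by rw [← mul_assoc, hxx, c.ee])
      have h7 : y⁻¹ = y * e := inv_eq_of_mul_eq_one_right (by rw [← mul_assoc, hyy, c.ee])
      rw [h5, h6, h7]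
      calc x * y = x * (e * e) * y * (e * e) := by rw [c.ee, mul_one, mul_one]
        _ = x * e * e * (y * e) * e := by group
    have hone : ∀ v, v ≠ 0 → v ≠ 1 → L (gU h 0 1) * L (gU h 0 v) = L (gU h 0 v) * L (gU h 0 1) * e :=
      fun v hv hv1 => key 1 v one_ne_zero hv fun e' => hv1 (by linear_combination e' - h.two)
    set x := L (gU h 0 1)
    set y := L (gU h 0 w)
    set y' := L (gU h 0 w')
    have hww0 : w + w' ≠ 0 := fun e' => hww (by linear_combination e' - w' * h.two)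
    have h1 := hone w hw0 hw1
    have h2 := hone w' hw'0 hw'1
    have h3 := hone (w + w') hww0 hsum
    have h4 : σ (y * y') = σ (L (gU h 0 (w + w'))) := by
      rw [map_mul, hL, hL, hL, gU_mul, add_zero, th_zero, zero_mul, add_zero]
    change x * y = y * x * e at h1
    change x * y' = y' * x * e at h2
    have h5 : x * (y * y') = y * y' * x := by
      calc x * (y * y') = y * x * (e * y') := by rw [← mul_assoc, h1]; group
        _ = y * (x * y') * e := by rw [c.central y']; group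
        _ = y * y' * x * (e * e) := by rw [h2]; group
        _ = y * y' * x := by rw [c.ee, mul_one]
    refine c.ne_one ?_
    have h6 := c.comm_lift (x := x) (y := L (gU h 0 (w + w'))) rfl h4.symm h5
    rw [h3] at h6
    exact mul_eq_left.mp h6
  have hsq : ∀ x : Γ, ∀ z, σ x = gU h 0 z → x * x = 1 := by
    intro x z hx
    rw [c.sq_eq (hx.trans (hL _).symm)]
    by_cases hz : z = 0
    · subst hz
      have h1 : σ (L (gU h 0 (0 : F))) = σ 1 := by rw [hL, gU_zero, map_one]
      rw [c.sq_eq h1, mul_one]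
    · exact (hQinv 1 z one_ne_zero hz).trans hQ1
  refine ⟨hsq, ?_⟩
  -- the commutator pairing between the quotient and the centre
  let S : F → F → Prop := fun a z => L (gU h a 0) * L (gU h 0 z) = L (gU h 0 z) * L (gU h a 0)
  have hZcomm : ∀ v v', L (gU h 0 v) * L (gU h 0 v') = L (gU h 0 v') * L (gU h 0 v) := by
    intro v v'
    set x := L (gU h 0 v) with hx
    set y := L (gU h 0 v') with hy
    have h1 := hsq (x * y) (v + v') (by rw [map_mul, hL, hL, gU_mul, add_zero, th_zero, zero_mul, add_zero])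
    have hxx : x⁻¹ = x := inv_eq_of_mul_eq_one_right (hsq x v (hL _))
    have hyy : y⁻¹ = y := inv_eq_of_mul_eq_one_right (hsq y v' (hL _))
    calc x * y = (x * y)⁻¹ := (inv_eq_of_mul_eq_one_right h1).symm
      _ = y * x := by rw [mul_inv_rev, hxx, hyy]
  have hpair : ∀ x y : Γ, ∀ p q : G F m, σ x = p → σ y = q → p * q = q * p → x * y = y * x ∨ x * y = y * x * e := by
    intro x y p q hx hy hpq
    exact c.two_choices (by rw [map_mul, map_mul, hx, hy, hpq])
  have hcomUZ : ∀ a b z, gU h a b * gU h 0 z = gU h 0 z * gU h a b := fun a b z => by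
    rw [gU_mul, gU_mul]
    congr 1
    · ring
    · simp only [th_zero, zero_mul, mul_zero, add_zero]; ring
  have hbi : ∀ x y y' : Γ, x * y = y * x * e → x * y' = y' * x * e → x * (y * y') = y * y' * x := by
    intro x y y' h1 h2
    calc x * (y * y') = y * x * (e * y') := by rw [← mul_assoc, h1]; group
      _ = y * (x * y') * e := by rw [c.central y']; group
      _ = y * y' * x * (e * e) := by rw [h2]; group
      _ = y * y' * x := by rw [c.ee, mul_one]
  have hne_e : ∀ x y : Γ, x * y = y * x → x * y ≠ y * x * e := fun x y h1 h2 =>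
    c.ne_one (mul_eq_left.mp (h2.symm.trans h1))
  -- additivity
  have haddz : ∀ a v v', (S a v ↔ S a v') → S a (v + v') := by
    intro a v v' hiff
    show L (gU h a 0) * L (gU h 0 (v + v')) = L (gU h 0 (v + v')) * L (gU h a 0)
    have h4 : σ (L (gU h 0 v) * L (gU h 0 v')) = σ (L (gU h 0 (v + v'))) := by
      rw [map_mul, hL, hL, hL, gU_mul, add_zero, th_zero, zero_mul, add_zero]
    refine c.comm_lift rfl h4.symm ?_
    by_cases h1 : S a v
    · have h2 : S a v' := hiff.mp h1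
      exact (Commute.mul_right (h1 : Commute _ _) h2).eq
    · exact hbi _ _ _ ((hpair _ _ _ _ (hL _) (hL _) (hcomUZ _ _ _)).resolve_left h1)
        ((hpair _ _ _ _ (hL _) (hL _) (hcomUZ _ _ _)).resolve_left (fun h2 => h1 (hiff.mpr h2)))
  have hSU : ∀ x : Γ, ∀ a b z, σ x = gU h a b → (S a z ↔ x * L (gU h 0 z) = L (gU h 0 z) * x) := by
    intro x a b z hx
    have h4 : σ (L (gU h a 0) * L (gU h 0 b)) = σ x := by
      rw [map_mul, hL, hL, hx, gU_mul, mul_zero, add_zero, add_zero, zero_add]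
    constructor
    · intro h1
      exact c.comm_lift h4.symm rfl (Commute.mul_left (h1 : Commute _ _) (hZcomm b z)).eq
    · intro h1
      have h5 : σ (L (gU h a 0)) = σ (x * (L (gU h 0 b))⁻¹) := by
        rw [map_mul, map_inv, ← h4, map_mul, mul_inv_cancel_right]
      exact c.comm_lift h5 rfl (Commute.mul_left (h1 : Commute _ _) (Commute.inv_left (hZcomm b z))).eq
  have hSconj : ∀ (s : Fˣ) a z, S a z ↔ S (th m (s : F) * a) (th m (s : F) * (s : F) ^ 2 * z) := by
    intro s a z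
    set d := L (gD h s)
    set x := L (gU h a 0)
    set y := L (gU h 0 z)
    have hx' : σ (d * x * d⁻¹) = gU h (th m (s : F) * a) (th m (s : F) * (s : F) ^ 2 * 0) := by
      rw [map_mul, map_mul, map_inv, hL, hL, gD_gU]
    have hy' : σ (d * y * d⁻¹) = σ (L (gU h 0 (th m (s : F) * (s : F) ^ 2 * z))) := by
      rw [map_mul, map_mul, map_inv, hL, hL, hL, gD_gU, mul_zero]
    rw [hSU _ _ _ (th m (s : F) * (s : F) ^ 2 * z) hx']
    constructor
    · intro h1
      refine c.comm_lift (x := d * x * d⁻¹) (x' := d * x * d⁻¹) rfl hy'.symm ?_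
      calc d * x * d⁻¹ * (d * y * d⁻¹) = d * (x * y) * d⁻¹ := by group
        _ = d * (y * x) * d⁻¹ := by rw [show x * y = y * x from h1]
        _ = d * y * d⁻¹ * (d * x * d⁻¹) := by group
    · intro h1
      have h2 := c.comm_lift (x := d * x * d⁻¹) (x' := d * x * d⁻¹) rfl hy' h1
      show x * y = y * x
      calc x * y = d⁻¹ * (d * x * d⁻¹ * (d * y * d⁻¹)) * d := by group
        _ = d⁻¹ * (d * y * d⁻¹ * (d * x * d⁻¹)) * d := by rw [h2]
        _ = y * x := by group
  have hS0 : ∀ z, S 0 z := fun z => by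
    show L (gU h 0 0) * _ = _
    refine c.comm_lift (x' := 1) ?_ rfl (by rw [one_mul, mul_one])
    rw [hL, gU_zero, map_one]
  have hS1 : ∀ a : F, a ≠ 0 → ∀ z, S 1 (z * (a * th m a)⁻¹) ↔ S a z := by
    intro a ha z
    obtain ⟨s, hs⟩ := h.th_surjective a
    have hs0 : s ≠ 0 := fun e' => ha (by rw [← hs, e', th_zero])
    rw [hSconj (Units.mk0 s hs0) 1 (z * (a * th m a)⁻¹), Units.val_mk0, hs, mul_one]
    have hta : th m a ≠ 0 := fun e' => ha (th_eq_zero e')
    rw [show a * s ^ 2 * (z * (a * th m a)⁻¹) = z by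
      rw [← h.th_th s, hs]; field_simp]
  have hadda : ∀ a a' z, ((S a z ↔ S a' z) ↔ S (a + a') z) := by
    intro a a' z
    have h4 : σ (L (gU h a 0) * L (gU h a' 0)) = gU h (a + a') (0 + 0 + th m a * a') := by
      rw [map_mul, hL, hL, gU_mul]
    rw [hSU _ _ _ z h4]
    set x := L (gU h a 0)
    set x' := L (gU h a' 0)
    set y := L (gU h 0 z)
    have hx : x * y = y * x ∨ x * y = y * x * e := hpair _ _ _ _ (hL _) (hL _) (hcomUZ _ _ _)
    have hx' : x' * y = y * x' ∨ x' * y = y * x' * e := hpair _ _ _ _ (hL _) (hL _) (hcomUZ _ _ _)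
    have hrev : ∀ u : Γ, u * y = y * u * e → y * u = u * y * e := fun u hu => by
      rw [hu, mul_assoc, c.ee, mul_one]
    constructor
    · intro hiff
      rcases hx with h1 | h1
      · exact (Commute.mul_left (h1 : Commute x y) (hiff.mp h1 : Commute x' y)).eq
      · have h2 := hx'.resolve_left fun h2 => hne_e _ _ (hiff.mpr h2) h1
        exact (hbi y x x' (hrev x h1) (hrev x' h2)).symm
    · intro hc
      constructor
      · intro h1
        show x' * y = y * x'
        calc x' * y = x⁻¹ * (x * x' * y) := by group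
          _ = x⁻¹ * (y * x) * x' := by rw [hc]; group
          _ = x⁻¹ * (x * y) * x' := by rw [show x * y = y * x from h1]
          _ = y * x' := by group
      · intro h1
        show x * y = y * x
        calc x * y = x * (y * x') * x'⁻¹ := by group
          _ = x * (x' * y) * x'⁻¹ := by rw [show x' * y = y * x' from h1]
          _ = x * x' * y * x'⁻¹ := by group
          _ = y * (x * x') * x'⁻¹ := by rw [hc]
          _ = y * x := by group
  have hall := twisted_additive_zero h hm2 (S 1) (haddz 1) (fun a b ha hb hab z => by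
    rw [hS1 a ha, hS1 b hb, hS1 _ hab]; exact hadda a b z)
  intro x y a b z hx hy
  have hy' : σ y = σ (L (gU h 0 z)) := by rw [hy, hL]
  refine c.comm_lift rfl hy' ((hSU x a b z hx).mp ?_)
  by_cases ha : a = 0
  · rw [ha]; exact hS0 z
  · exact (hS1 a ha z).mp (hall _)

omit c in
theorem exists_norm {w : F} (hw : w ≠ 0) : ∃ s : Fˣ, th m (s : F) * (s : F) ^ 2 = w := by
  obtain ⟨u, hu⟩ := norm_surj h w
  obtain ⟨s, hs⟩ := h.th_surjective u
  have hu0 : u ≠ 0 := fun e' => hw (by rw [← hu, e']; simp)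
  refine ⟨Units.mk0 s fun e' => hu0 (by rw [← hs, e', th_zero]), ?_⟩
  rw [Units.val_mk0, ← h.th_th s, hs, ← hu]

/-- An additive section of the centre of the Sylow subgroup, compatible with all squares. -/
theorem exists_section (hm2 : 2 ≤ m) : ∃ σ0 : F → Γ, (∀ z, σ (σ0 z) = gU h 0 z) ∧
    (∀ z z', σ0 (z + z') = σ0 z * σ0 z') ∧
    ∀ x : Γ, ∀ a b, σ x = gU h a b → x * x = σ0 (th m a * a) := by
  classical
  obtain ⟨hsq, hcen⟩ := lift_central h c hm2
  choose L hL using c.surj
  obtain ⟨k, hk0, hk1⟩ := exists_ne_01 h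
  obtain ⟨s, hs⟩ := exists_norm h hk0
  have hk : k + 1 ≠ 0 := fun e' => hk1 (by linear_combination e' - h.two)
  set d := L (gD h s) with hd
  let ψ : Γ → Γ := fun y => d * y * d⁻¹ * y⁻¹
  have hψ : ∀ y z, σ y = gU h 0 z → σ (ψ y) = gU h 0 ((k + 1) * z) := by
    intro y z hy
    simp only [ψ, map_mul, map_inv, hy, hd, hL, gD_gU, mul_zero, hs]
    rw [mul_inv_eq_iff_eq_mul, gU_mul, add_zero, th_zero, zero_mul, add_zero]
    congr 1
    linear_combination -z * h.two
  have hwd : ∀ y y', σ y = σ y' → ψ y = ψ y' := by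
    intro y y' hy
    rcases c.two_choices hy with rfl | rfl
    · rfl
    · show d * (y' * e) * d⁻¹ * (y' * e)⁻¹ = d * y' * d⁻¹ * y'⁻¹
      calc d * (y' * e) * d⁻¹ * (y' * e)⁻¹ = d * y' * (e * d⁻¹) * e⁻¹ * y'⁻¹ := by group
        _ = d * y' * (d⁻¹ * e) * e⁻¹ * y'⁻¹ := by rw [c.central d⁻¹]
        _ = d * y' * d⁻¹ * y'⁻¹ := by group
  let σ0 : F → Γ := fun z => ψ (L (gU h 0 (z / (k + 1))))
  have hσ0 : ∀ z, σ (σ0 z) = gU h 0 z := fun z => by
    rw [show σ0 z = ψ (L (gU h 0 (z / (k + 1)))) from rfl, hψ _ _ (hL _), mul_div_cancel₀ z hk]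
  have hcZ : ∀ u v : Γ, ∀ z z', σ u = gU h 0 z → σ v = gU h 0 z' → u * v = v * u :=
    fun u v z z' hu hv => hcen u v 0 z z' hu hv
  have hadd : ∀ z z', σ0 (z + z') = σ0 z * σ0 z' := by
    intro z z'
    set y := L (gU h 0 (z / (k + 1))) with hy
    set y' := L (gU h 0 (z' / (k + 1))) with hy'
    have h1 : σ (L (gU h 0 ((z + z') / (k + 1)))) = σ (y * y') := by
      rw [map_mul, hy, hy', hL, hL, hL, gU_mul, add_zero, th_zero, zero_mul, add_zero, add_div]
    show ψ _ = ψ y * ψ y'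
    rw [hwd _ _ h1]
    show d * (y * y') * d⁻¹ * (y * y')⁻¹ = d * y * d⁻¹ * y⁻¹ * (d * y' * d⁻¹ * y'⁻¹)
    have h2 : σ (d * y' * d⁻¹) = gU h 0 (k * (z' / (k + 1))) := by
      rw [map_mul, map_mul, map_inv, hy', hd, hL, hL, gD_gU, mul_zero, hs]
    have h3 : y⁻¹ * (d * y' * d⁻¹ * y'⁻¹) = (d * y' * d⁻¹ * y'⁻¹) * y⁻¹ :=
      (Commute.inv_left (hcZ y _ _ _ (hL _) (hψ y' _ (hL _)) : Commute y (ψ y'))).eq
    calc d * (y * y') * d⁻¹ * (y * y')⁻¹ = d * y * d⁻¹ * ((d * y' * d⁻¹ * y'⁻¹) * y⁻¹) := by group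
      _ = d * y * d⁻¹ * y⁻¹ * (d * y' * d⁻¹ * y'⁻¹) := by rw [← h3]; group
  have hequiv : ∀ (s' : Fˣ) z,
      L (gD h s') * σ0 z * (L (gD h s'))⁻¹ = σ0 (th m (s' : F) * (s' : F) ^ 2 * z) := by
    intro s' z
    set d' := L (gD h s') with hd'
    set y := L (gU h 0 (z / (k + 1))) with hy
    have h1 : σ (d' * d * d'⁻¹) = σ d := by
      rw [map_mul, map_mul, map_inv, hd', hd, hL, hL, gD_mul, gD_inv, gD_mul, mul_inv_cancel_comm]
    have h2 : σ (d' * y * d'⁻¹) = σ (L (gU h 0 (th m (s' : F) * (s' : F) ^ 2 * z / (k + 1)))) := by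
      rw [map_mul, map_mul, map_inv, hd', hy, hL, hL, hL, gD_gU, mul_zero, mul_div_assoc]
    show d' * (d * y * d⁻¹ * y⁻¹) * d'⁻¹ = ψ _
    rw [← hwd _ _ h2]
    show _ = d * (d' * y * d'⁻¹) * d⁻¹ * (d' * y * d'⁻¹)⁻¹
    rw [← c.conj_eq h1 (d' * y * d'⁻¹)]
    group
  refine ⟨σ0, hσ0, hadd, ?_⟩
  have hzero : σ0 0 = 1 := by simpa using hadd 0 0
  have hinv : ∀ z, (σ0 z)⁻¹ = σ0 z := fun z => inv_eq_of_mul_eq_one_right (by
    rw [← hadd, show z + z = 0 by linear_combination z * h.two, hzero])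
  have hee : e⁻¹ = e := inv_eq_of_mul_eq_one_right c.ee
  have hval : ∀ x : Γ, ∀ a b, σ x = gU h a b →
      x * x = σ0 (th m a * a) ∨ x * x = σ0 (th m a * a) * e := fun x a b hx =>
    c.two_choices (by rw [map_mul, hx, hσ0, gU_sq])
  have hsame : ∀ x x' : Γ, ∀ a b b', σ x = gU h a b → σ x' = gU h a b' → x * x = x' * x' := by
    intro x x' a b b' hx hx'
    have hy : σ (x⁻¹ * x') = gU h 0 (b + b') := by
      rw [map_mul, map_inv, hx, hx', inv_mul_eq_iff_eq_mul, gU_mul, add_zero, mul_zero, add_zero]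
      congr 1
      linear_combination -b * h.two
    have h1 : x' * x' = x * x * (x⁻¹ * x' * (x⁻¹ * x')) := by
      set w := x⁻¹ * x' with hw
      have : x * w = w * x := hcen x w a b _ hx hy
      calc x' * x' = x * w * (x * w) := by rw [hw]; group
        _ = x * (w * x) * w := by group
        _ = x * x * (w * w) := by rw [← this]; group
    rw [h1, hsq _ _ hy, mul_one]
  intro x a b hx
  by_cases ha : a = 0
  · subst ha
    rw [hsq x b hx, th_zero, zero_mul, hzero]
  by_contra hne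
  have hall : ∀ x' : Γ, ∀ a' b', a' ≠ 0 → σ x' = gU h a' b' → x' * x' = σ0 (th m a' * a') * e := by
    intro x' a' b' ha' hx'
    refine (hval x' a' b' hx').resolve_left fun hgood => hne ?_
    obtain ⟨t, ht⟩ := h.th_surjective (a / a')
    have ht0 : t ≠ 0 := fun e' => div_ne_zero ha ha' (by rw [← ht, e', th_zero])
    set s' : Fˣ := Units.mk0 t ht0
    have hs' : th m (s' : F) = a / a' := ht
    set d' := L (gD h s')
    have h1 : σ (d' * x' * d'⁻¹) = gU h a (th m (s' : F) * (s' : F) ^ 2 * b') := by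
      rw [map_mul, map_mul, map_inv, hL, hx', gD_gU, hs', div_mul_cancel₀ a ha']
    rw [hsame x _ a b _ hx h1]
    calc d' * x' * d'⁻¹ * (d' * x' * d'⁻¹) = d' * (x' * x') * d'⁻¹ := by group
      _ = σ0 (th m (s' : F) * (s' : F) ^ 2 * (th m a' * a')) := by rw [hgood, hequiv]
      _ = σ0 (th m a * a) := by
        congr 1
        have h2 : a = th m (s' : F) * a' := by rw [hs', div_mul_cancel₀ a ha']
        rw [h2, th_mul, h.th_th]; ring
  have hσe : ∀ u v : Γ, ∀ z z', σ u = gU h 0 z → σ v = gU h 0 z' → u * e * (v * e) = u * v := by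
    intro u v z z' _ _
    calc u * e * (v * e) = u * (e * v) * e := by group
      _ = u * v * (e * e) := by rw [c.central v]; group
      _ = u * v := by rw [c.ee, mul_one]
  have key : ∀ u v : Γ, ∀ a₁ b₁ a₂ b₂, a₁ ≠ 0 → a₂ ≠ 0 → a₁ + a₂ ≠ 0 →
      σ u = gU h a₁ b₁ → σ v = gU h a₂ b₂ →
      u⁻¹ * v * u * v⁻¹ = σ0 (th m a₁ * a₂ + th m a₂ * a₁) * e := by
    intro u v a₁ b₁ a₂ b₂ h1 h2 h12 hu hv
    have h3 := hall _ _ _ h12 (show σ (u * v) = gU h (a₁ + a₂) (b₁ + b₂ + th m a₁ * a₂) by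
      rw [map_mul, hu, hv, gU_mul])
    calc u⁻¹ * v * u * v⁻¹ = (u * u)⁻¹ * (u * v * (u * v)) * (v * v)⁻¹ := by group
      _ = e * σ0 (th m a₁ * a₁) * (σ0 (th m (a₁ + a₂) * (a₁ + a₂)) * e) * (e * σ0 (th m a₂ * a₂)) := by
        rw [h3, hall u a₁ b₁ h1 hu, hall v a₂ b₂ h2 hv, mul_inv_rev (σ0 _) e, mul_inv_rev (σ0 _) e, hee, hinv, hinv]
      _ = e * σ0 (th m a₁ * a₁) * σ0 (th m (a₁ + a₂) * (a₁ + a₂)) * (e * e) * σ0 (th m a₂ * a₂) := by group
      _ = σ0 (th m a₁ * a₁) * σ0 (th m (a₁ + a₂) * (a₁ + a₂)) * σ0 (th m a₂ * a₂) * e := by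
        rw [c.ee, mul_one, ← c.central]; group
      _ = σ0 (th m a₁ * a₂ + th m a₂ * a₁) * e := by
        rw [← hadd, ← hadd]
        congr 2
        rw [h.th_add]
        linear_combination (th m a₁ * a₁ + th m a₂ * a₂) * h.two
  obtain ⟨w, w', hw0, hw1, hw'0, hw'1, hww, hsum⟩ := exists_three h
  have hww0 : w + w' ≠ 0 := fun e' => hww (by linear_combination e' - w' * h.two)
  have hne1 : ∀ v : F, v ≠ 1 → (1 : F) + v ≠ 0 := fun v hv e' => hv (by linear_combination e' - h.two)
  set u := L (gU h 1 0)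
  set y := L (gU h w 0)
  set y' := L (gU h w' 0)
  have k1 := key u y 1 0 w 0 one_ne_zero hw0 (hne1 w hw1) (hL _) (hL _)
  have k2 := key u y' 1 0 w' 0 one_ne_zero hw'0 (hne1 w' hw'1) (hL _) (hL _)
  have k3 := key u (y * y') 1 0 (w + w') (0 + 0 + th m w * w') one_ne_zero hww0 (hne1 _ hsum) (hL _)
    (by rw [map_mul, hL, hL, gU_mul])
  have k4 : u⁻¹ * (y * y') * u * (y * y')⁻¹ = u⁻¹ * y * u * y⁻¹ * (u⁻¹ * y' * u * y'⁻¹) := by
    have hc : u⁻¹ * y' * u * y'⁻¹ * y⁻¹ = y⁻¹ * (u⁻¹ * y' * u * y'⁻¹) := by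
      have h1 : σ (u⁻¹ * y' * u * y'⁻¹) = gU h 0 (th m (1 : F) * w' + th m w' * 1) := by
        rw [k2, map_mul, (c.ker e).mpr (Or.inr rfl), mul_one, hσ0]
      exact (Commute.inv_left (hcen y _ w 0 _ (hL _) h1 : Commute y _)).eq.symm
    calc u⁻¹ * (y * y') * u * (y * y')⁻¹ = u⁻¹ * y * u * (u⁻¹ * y' * u * y'⁻¹ * y⁻¹) := by group
      _ = u⁻¹ * y * u * y⁻¹ * (u⁻¹ * y' * u * y'⁻¹) := by rw [hc]; group
  rw [k4, k1, k2, hσe _ _ _ _ (hσ0 _) (hσ0 _), ← hadd] at k3
  rw [h.th_add, show th m (1 : F) * w + th m w * 1 + (th m (1 : F) * w' + th m w' * 1) =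
    th m (1 : F) * (w + w') + (th m w + th m w') * 1 by ring] at k3
  exact c.ne_one (mul_eq_left.mp k3.symm)

omit c in
/-- No perfect-style double cover exists. -/
theorem no_double_cover [Finite Γ] (c : DoubleCover σ e) (hm2 : 2 ≤ m) (hst : e ∈ commutator Γ) : False := by
  classical
  obtain ⟨σ0, hσ0, hadd, hsq⟩ := exists_section h c hm2
  have hzero : σ0 0 = 1 := by simpa using hadd 0 0
  have hinv : ∀ z, (σ0 z)⁻¹ = σ0 z := fun z => inv_eq_of_mul_eq_one_right (by
    rw [← hadd, show z + z = 0 by linear_combination z * h.two, hzero])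
  set E : Subgroup Γ := (Usub h).comap σ with hE
  have heE : e ∈ E := by
    rw [hE, Subgroup.mem_comap, (c.ker e).mpr (Or.inr rfl)]; exact one_mem _
  let Z0 : Subgroup E :=
    { carrier := {x | ∃ z, (x : Γ) = σ0 z}
      one_mem' := ⟨0, hzero.symm⟩
      mul_mem' := by
        rintro x y ⟨z, hz⟩ ⟨z', hz'⟩
        exact ⟨z + z', by rw [Subgroup.coe_mul, hz, hz', hadd]⟩
      inv_mem' := by
        rintro x ⟨z, hz⟩
        exact ⟨z, by rw [Subgroup.coe_inv, hz, hinv]⟩ }
  let e' : E := ⟨e, heE⟩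
  have he' : e' ∉ Z0 := by
    rintro ⟨z, hz⟩
    have h1 : σ e = gU h 0 z := by rw [show e = σ0 z from hz, hσ0]
    rw [(c.ker e).mpr (Or.inr rfl)] at h1
    rw [show z = 0 from ((gU_eq_one_iff h).mp h1.symm).2, hzero] at hz
    exact c.ne_one hz
  have hsqE : ∀ x : E, x * x ∈ Z0 := by
    intro x
    obtain ⟨a, b, hx⟩ := (mem_Usub h).mp (x.2 : σ x ∈ Usub h)
    exact ⟨_, by rw [Subgroup.coe_mul]; exact hsq _ a b hx⟩
  obtain ⟨M, hM, hmax⟩ : ∃ M : Subgroup E, (Z0 ≤ M ∧ e' ∉ M) ∧
      ∀ M' : Subgroup E, Z0 ≤ M' → e' ∉ M' → M ≤ M' → M' = M := by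
    obtain ⟨M, hM⟩ := (Set.toFinite {M : Subgroup E | Z0 ≤ M ∧ e' ∉ M}).exists_maximal ⟨Z0, le_rfl, he'⟩
    exact ⟨M, hM.1, fun M' h1 h2 h3 => le_antisymm (hM.2 ⟨h1, h2⟩ h3) h3⟩
  have hMn : ∀ g x : E, x ∈ M → g * x * g⁻¹ ∈ M := by
    intro g x hx
    have h1 : g * x * g⁻¹ = g * x * (g * x) * x⁻¹ * (g * g)⁻¹ := by group
    rw [h1]
    exact mul_mem (mul_mem (hM.1 (hsqE _)) (inv_mem hx)) (inv_mem (hM.1 (hsqE _)))
  have hee' : e' * e' = 1 := Subtype.ext c.ee
  have hind : ∀ x : E, x ∉ M → x * e' ∈ M := by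
    intro x hx
    let M' : Subgroup E :=
      { carrier := {g | g ∈ M ∨ g * x⁻¹ ∈ M}
        one_mem' := Or.inl (one_mem M)
        mul_mem' := by
          rintro g g' (hg | hg) (hg' | hg')
          · exact Or.inl (mul_mem hg hg')
          · exact Or.inr (by rw [mul_assoc]; exact mul_mem hg hg')
          · refine Or.inr ?_
            have : g * g' * x⁻¹ = g * x⁻¹ * (x * g' * x⁻¹) := by group
            rw [this]; exact mul_mem hg (hMn x g' hg')
          · refine Or.inl ?_
            have : g * g' = g * x⁻¹ * (x * (g' * x⁻¹) * x⁻¹) * (x * x) := by group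
            rw [this]; exact mul_mem (mul_mem hg (hMn x _ hg')) (hM.1 (hsqE x))
        inv_mem' := by
          rintro g (hg | hg)
          · exact Or.inl (inv_mem hg)
          · refine Or.inr ?_
            have : g⁻¹ * x⁻¹ = x⁻¹ * (g * x⁻¹)⁻¹ * (x⁻¹)⁻¹ * (x⁻¹ * x⁻¹) := by group
            rw [this]; exact mul_mem (hMn _ _ (inv_mem hg)) (hM.1 (hsqE _)) }
    have hMM : M ≤ M' := fun g hg => Or.inl hg
    have : e' ∈ M' := by
      by_contra h1
      have h2 := hmax M' (hM.1.trans hMM) h1 hMM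
      exact hx (h2 ▸ (Or.inr (by rw [mul_inv_cancel]; exact one_mem M) : x ∈ M'))
    rcases this with h1 | h1
    · exact absurd h1 hM.2
    · have h2 : x * e' = (e' * x⁻¹)⁻¹ := by rw [mul_inv_rev, inv_inv, inv_eq_of_mul_eq_one_right hee']
      rw [h2]; exact inv_mem h1
  have hidx : M.index = 2 := by
    rw [Subgroup.index_eq_two_iff]
    refine ⟨e', fun b => ?_⟩
    by_cases hb : b ∈ M
    · exact Or.inr ⟨hb, fun h1 => hM.2 (by simpa using mul_mem (inv_mem hb) h1)⟩
    · exact Or.inl ⟨hind b hb, hb⟩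
  let f : E →* Multiplicative (ZMod 2) := MonoidHom.mk'
    (fun x => if x ∈ M then 1 else Multiplicative.ofAdd 1) fun x y => by
      by_cases hx : x ∈ M <;> by_cases hy : y ∈ M <;>
        simp [hx, hy, Subgroup.mul_mem_iff_of_index_two hidx, ← ofAdd_add, show (1 : ZMod 2) + 1 = 0 from rfl]
  haveI : E.FiniteIndex := inferInstance
  have h2 : MonoidHom.transfer f e = 1 := by
    have h3 := Abelianization.commutator_subset_ker (MonoidHom.transfer f) hst
    exact h3
  rw [MonoidHom.transfer_eq_pow f e fun k g _ => by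
    have : Commute e g := c.central g
    rw [mul_assoc, (this.pow_left k).eq, inv_mul_cancel_left]] at h2
  have hodd : Odd E.index := by
    rw [hE, Subgroup.index_comap_of_surjective _ c.surj, Usub_index h, ← Nat.not_even_iff_odd,
      even_iff_two_dvd]
    exact odd_part h
  obtain ⟨j, hj⟩ := hodd
  have h4 : (⟨e ^ E.index, MonoidHom.transfer_eq_pow_aux e fun k g _ => by
      have : Commute e g := c.central g
      rw [mul_assoc, (this.pow_left k).eq, inv_mul_cancel_left]⟩ : E) = e' := by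
    apply Subtype.ext
    show e ^ E.index = e
    rw [hj, pow_succ, pow_mul, pow_two, c.ee, one_pow, one_mul]
  rw [h4] at h2
  simp only [f, MonoidHom.mk'_apply, hM.2, if_false] at h2
  exact absurd (Multiplicative.ofAdd.injective h2) (by decide)

end

section

variable {F : Type*} [Field F] [Fintype F] {m : ℕ} (h : Hyp F m)
include h

/-- No cover of odd prime degree, as the odd Sylow subgroups are cyclic. -/
theorem no_odd_cover {Γ : Type*} [Group Γ] [Finite Γ] (σ : Γ →* G F m) (hσ : Function.Surjective σ)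
    (hc : σ.ker ≤ Subgroup.center Γ) {p : ℕ} [hp : Fact p.Prime] (hp2 : p ≠ 2) {e : Γ} (he : orderOf e = p)
    (hek : e ∈ σ.ker) (hst : e ∈ commutator Γ) : False := by
  classical
  have hpg : IsPGroup p (Subgroup.zpowers e) := IsPGroup.of_card (n := 1) (by rw [Nat.card_zpowers, he, pow_one])
  obtain ⟨P, hP⟩ := hpg.exists_le_sylow
  haveI := Trich.sylow_cyclic (trich h) hp2 (P.mapSurjective hσ)
  have hcomm : ∀ x y : (P : Subgroup Γ), x * y = y * x := by
    haveI : IsCyclic ((P : Subgroup Γ).map σ) := ‹IsCyclic (P.mapSurjective hσ)›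
    refine commutative_of_cyclic_center_quotient (σ.subgroupMap (P : Subgroup Γ)) ?_
    intro x hx
    have h1 : (x : Γ) ∈ σ.ker := by
      rw [MonoidHom.mem_ker] at hx ⊢
      exact congrArg Subtype.val hx
    exact Subgroup.mem_center_iff.mpr fun y => Subtype.ext (Subgroup.mem_center_iff.mp (hc h1) y)
  letI : CommGroup (P : Subgroup Γ) := { (inferInstance : Group (P : Subgroup Γ)) with mul_comm := hcomm }
  let f : (P : Subgroup Γ) →* (P : Subgroup Γ) := MonoidHom.id _
  have h2 : MonoidHom.transfer f e = 1 := Abelianization.commutator_subset_ker (MonoidHom.transfer f) hst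
  rw [MonoidHom.transfer_eq_pow f e fun k g _ => by
    rw [mul_assoc, (Commute.pow_left (Subgroup.mem_center_iff.mp (hc hek) g).symm k).eq,
      inv_mul_cancel_left]] at h2
  have h3 : e ^ (P : Subgroup Γ).index = 1 := congrArg Subtype.val h2
  rw [← orderOf_dvd_iff_pow_eq_one, he] at h3
  exact P.not_dvd_index h3

/-- Stem extensions of the Suzuki groups over at least 32 elements are trivial. -/
theorem stem_trivial (hm2 : 2 ≤ m) {Γ : Type*} [Group Γ] [Finite Γ] (σ : Γ →* G F m)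
    (hσ : Cfsg.IsStemExtension σ) : σ.ker = ⊥ := by
  classical
  by_contra hne
  obtain ⟨hs, hc, hst⟩ := hσ
  set p := (Nat.card σ.ker).minFac with hp'
  have hp : p.Prime := Nat.minFac_prime (fun e => hne (Subgroup.card_eq_one.mp e))
  haveI := Fact.mk hp
  have hcomm : ∀ x y : σ.ker, x * y = y * x := fun x y =>
    Subtype.ext (Subgroup.mem_center_iff.mp (hc y.2) x)
  letI : CommGroup σ.ker := { (inferInstance : Group σ.ker) with mul_comm := hcomm }
  -- a subgroup of index `p` in the kernel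
  let φ : σ.ker →* σ.ker := powMonoidHom p
  have hφ : φ.range ≠ ⊤ := by
    intro htop
    obtain ⟨x, hx⟩ := exists_prime_orderOf_dvd_card' p (Nat.minFac_dvd (Nat.card σ.ker))
    have hinj : Function.Injective φ :=
      Finite.injective_iff_surjective.mpr (MonoidHom.range_eq_top.mp htop)
    have : φ x = φ 1 := by rw [map_one, powMonoidHom_apply, ← hx, pow_orderOf_eq_one]
    rw [hinj this, orderOf_one] at hx
    exact hp.ne_one hx.symm
  obtain ⟨K0, hK0, hle⟩ := (eq_top_or_exists_le_coatom φ.range).resolve_left hφ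
  set K : Subgroup Γ := K0.map σ.ker.subtype
  have hKc : K ≤ Subgroup.center Γ := (Subgroup.map_subtype_le _).trans hc
  haveI : K.Normal := ⟨fun x hx g => by
    rwa [show g * x * g⁻¹ = x by rw [Subgroup.mem_center_iff.mp (hKc hx) g, mul_inv_cancel_right]]⟩
  have hKker : K ≤ σ.ker := Subgroup.map_subtype_le _
  let π := QuotientGroup.mk' K
  let τ : Γ ⧸ K →* G F m := QuotientGroup.lift K σ hKker
  obtain ⟨x, hx⟩ : ∃ x : σ.ker, x ∉ K0 := by
    by_contra hcon
    push Not at hcon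
    exact hK0.1 (eq_top_iff.mpr fun y _ => hcon y)
  have hxK : (x : Γ) ∉ K := by
    rintro ⟨y, hy, hyx⟩
    exact hx (Subtype.coe_injective hyx ▸ hy)
  set e : Γ ⧸ K := π x with he
  have he1 : e ≠ 1 := fun h1 => hxK ((QuotientGroup.eq_one_iff _).mp h1)
  have hep : orderOf e = p := by
    refine orderOf_eq_prime ?_ he1
    rw [he, ← map_pow, ← Subgroup.coe_pow]
    exact (QuotientGroup.eq_one_iff _).mpr ⟨x ^ p, hle ⟨x, rfl⟩, rfl⟩
  have hτs : Function.Surjective τ := fun g => by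
    obtain ⟨y, rfl⟩ := hs g; exact ⟨π y, rfl⟩
  have hτc : τ.ker ≤ Subgroup.center (Γ ⧸ K) := by
    intro u hu
    obtain ⟨y, rfl⟩ := QuotientGroup.mk'_surjective K u
    refine Subgroup.mem_center_iff.mpr fun v => ?_
    obtain ⟨z, rfl⟩ := QuotientGroup.mk'_surjective K v
    rw [← map_mul, ← map_mul, Subgroup.mem_center_iff.mp (hc (show y ∈ σ.ker from hu)) z]
  have heker : e ∈ τ.ker := x.2
  have hecomm : e ∈ commutator (Γ ⧸ K) := by
    have h1 : (commutator Γ).map π ≤ commutator (Γ ⧸ K) := by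
      rw [commutator_def, commutator_def, Subgroup.map_commutator]
      exact Subgroup.commutator_mono le_top le_top
    exact h1 ⟨x, hst x.2, rfl⟩
  by_cases hp2 : p = 2
  · refine no_double_cover h (σ := τ) (e := e) ⟨hτs, he1, fun u => ((Subgroup.mem_center_iff.mp (hτc heker)) u).symm,
      fun u => ⟨fun hu => ?_, ?_⟩⟩ hm2 hecomm
    · obtain ⟨y, rfl⟩ := QuotientGroup.mk'_surjective K u
      let y' : σ.ker := ⟨y, hu⟩
      have htop : K0 ⊔ Subgroup.zpowers x = ⊤ :=
        hK0.2 _ (lt_of_le_of_ne le_sup_left fun h1 => hx (h1 ▸ Subgroup.mem_sup_right (Subgroup.mem_zpowers x)))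
      obtain ⟨k, hk, z, ⟨i, rfl⟩, hkz⟩ := Subgroup.mem_sup.mp (htop ▸ Subgroup.mem_top y' : y' ∈ K0 ⊔ Subgroup.zpowers x)
      have h1 : π y = e ^ i := by
        rw [show y = (k : Γ) * (x : Γ) ^ i by
          rw [← Subgroup.coe_zpow, ← Subgroup.coe_mul]; exact (congrArg Subtype.val hkz).symm]
        rw [map_mul, map_zpow, show π (k : Γ) = 1 from (QuotientGroup.eq_one_iff _).mpr ⟨k, hk, rfl⟩, one_mul]
      have h2 : e * e = 1 := by rw [← pow_two, ← hp2, ← hep, pow_orderOf_eq_one]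
      rcases Int.even_or_odd' i with ⟨j, rfl | rfl⟩
      · exact Or.inl (by rw [h1, zpow_mul, zpow_two, h2, one_zpow])
      · exact Or.inr (by rw [h1, zpow_add, zpow_mul, zpow_two, h2, one_zpow, one_mul, zpow_one])
    · rintro (rfl | rfl)
      · exact map_one τ
      · exact heker
  · exact no_odd_cover h τ hτs hτc hp2 hep heker hecomm

end

end CfsgLib.Sz
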